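import Cfsg.Agent.Lib.Helper11.Sp.Trans
import Cfsg.Agent.Lib.Helper78.Sp.E00

set_option autoImplicit false

/-! # Pieces E1d, E1e of the symplectic campaign -/

namespace Cfsg.Agent.Lib.Helper11.Sp

open Cfsg Cfsg.Geo Matrix Cfsg.Agent.Lib.Helper13.Asch
open scoped Kronecker MatrixGroups

variable {F : Type*} [Field F]

/-- E1d -/
theorem sp_not_le_tensor {m a b : ℕ} (ha : 2 ≤ a) (hb : 2 ≤ b)
    (e : (Fin m ⊕ Fin m) ≃ Fin a × Fin b) (P : GL (Fin m ⊕ Fin m) F) :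
    ¬ spGL m F ≤ tensorProductSubgroup a b e P :=
  not_le_tensor_of_trans _ (Cfsg.Agent.Lib.Helper78.Sp.exists_spGL_map m) ha hb e P

/-- E1e -/
theorem sp_not_le_subfield {m : ℕ} (hm : 1 ≤ m) (F₀ : Subfield F) (hF₀ : F₀ ≠ ⊤)
    (P : GL (Fin m ⊕ Fin m) F) : ¬ spGL m F ≤ subfieldSubgroup F₀ P :=
  not_le_subfield_of_trans _ (Cfsg.Agent.Lib.Helper78.Sp.exists_spGL_map m)
    (by simp; omega) F₀ hF₀ P

end Cfsg.Agent.Lib.Helper11.Sp
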