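import Cfsg.Agent.Lib.Helper90.Sp.Defs2
import Cfsg.Agent.Lib.Helper5.SpPrimitive
import Cfsg.Agent.S0270

set_option autoImplicit false

/-! # Piece E1f of the symplectic campaign: `Sp` normalises no irreducible 2-group of similitudes -/

namespace Cfsg.Agent.Lib.Helper11.Sp

open Cfsg Cfsg.Geo Matrix Cfsg.Agent.Lib.Helper13.Asch Cfsg.Agent.Lib.Helper13
  Cfsg.Agent.Lib.Helper5
open scoped Kronecker MatrixGroups

variable {F : Type*} [Field F]

local notation "Sp" m => Matrix.symplecticGroup (Fin m) F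

/-- the embedding of Mathlib's symplectic group in the general linear group -/
noncomputable def psi (m : ℕ) : (Matrix.symplecticGroup (Fin m) F) →* GL (Fin m ⊕ Fin m) F :=
  (spGL m F).subtype.comp (spToSpGL (F := F) (m := m)).toMonoidHom

theorem psi_coe (m : ℕ) (A : Matrix.symplecticGroup (Fin m) F) :
    ((psi m A : GL (Fin m ⊕ Fin m) F) : Matrix (Fin m ⊕ Fin m) (Fin m ⊕ Fin m) F) = A.1 := rfl

theorem psi_mem (m : ℕ) (A : Matrix.symplecticGroup (Fin m) F) : psi m A ∈ spGL m F :=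
  (spToSpGL A).2

theorem psi_injective (m : ℕ) : Function.Injective (psi (F := F) m) := by
  intro A B h
  apply Subtype.ext
  rw [← psi_coe, ← psi_coe, h]

theorem exists_psi_eq (m : ℕ) (g : GL (Fin m ⊕ Fin m) F) (hg : g ∈ spGL m F) :
    ∃ A, psi m A = g :=
  ⟨spToSpGL.symm ⟨g, hg⟩, by
    show ((spToSpGL (spToSpGL.symm ⟨g, hg⟩) : spGL m F) : GL (Fin m ⊕ Fin m) F) = g
    rw [MulEquiv.apply_symm_apply]⟩

theorem tv_pow_mulVec (m : ℕ) (v : Fin m ⊕ Fin m → F) (j : ℕ) (x : Fin m ⊕ Fin m → F) :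
    ((tv v 1 ^ j : Matrix.symplecticGroup (Fin m) F) :
      Matrix (Fin m ⊕ Fin m) (Fin m ⊕ Fin m) F) *ᵥ x = x + ((j : F) * sympForm m F x v) • v := by
  induction j generalizing x with
  | zero => simp
  | succ j ih =>
    rw [pow_succ, Submonoid.coe_mul, ← Matrix.mulVec_mulVec, tv_mulVec, ih, sympForm_add_left,
      sympForm_smul_left, sympForm_self, mul_zero, add_zero, add_assoc, ← add_smul]
    congr 2
    push_cast
    ring

theorem pow_eq_zero_iff_of_pos' {x : F} {k : ℕ} (h : x ^ k = 0) : x = 0 :=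
  eq_zero_of_pow_eq_zero h

theorem two_ne_zero_of_odd [Fintype F] (hodd : Odd (Fintype.card F)) : (2 : F) ≠ 0 := by
  apply Ring.two_ne_zero
  intro h
  have := FiniteField.even_card_of_char_two h
  rw [Nat.odd_iff] at hodd
  omega

/-- a normal 2-subgroup of `Sp` is central -/
theorem normal_two_le_center [Fintype F] {m : ℕ} (hm : 2 ≤ m) (hodd : Odd (Fintype.card F))
    (N : Subgroup (Matrix.symplecticGroup (Fin m) F)) (hN : N.Normal)
    (hp : ∀ n ∈ N, ∃ k : ℕ, n ^ 2 ^ k = 1) :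
    N ≤ Subgroup.center (Matrix.symplecticGroup (Fin m) F) := by
  have h2 : (2 : F) ≠ 0 := two_ne_zero_of_odd hodd
  have h3 : 3 ≤ Fintype.card F := by
    have h1 := Fintype.one_lt_card (α := F)
    rcases hodd with ⟨k, hk⟩
    omega
  have hs : IsSimpleGroup (Cfsg.PSp m F) := Cfsg.Agent.S0270.result m hm (fun _ => h3)
  set Z := Subgroup.center (Matrix.symplecticGroup (Fin m) F) with hZ
  have hnm : (N.map (QuotientGroup.mk' Z)).Normal := hN.map _ (QuotientGroup.mk'_surjective _)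
  rcases hs.eq_bot_or_eq_top_of_normal _ hnm with h | h
  · have := (Subgroup.map_eq_bot_iff _).1 h
    rwa [QuotientGroup.ker_mk'] at this
  · exfalso
    set v : Fin m ⊕ Fin m → F := Pi.single (Sum.inl ⟨0, by omega⟩) 1 with hv
    have hv0 : v ≠ 0 := by
      intro h0
      have := congrFun h0 (Sum.inl ⟨0, by omega⟩)
      simp [hv] at this
    have ht : QuotientGroup.mk' Z (tv v 1) ∈ N.map (QuotientGroup.mk' Z) := by
      rw [h]; exact Subgroup.mem_top _
    obtain ⟨n, hn, hnt⟩ := ht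
    have hz : n⁻¹ * tv v 1 ∈ Z := QuotientGroup.eq.1 hnt
    obtain ⟨k, hk⟩ := hp n hn
    have hcomm : Commute n (n⁻¹ * tv v 1) := (Subgroup.mem_center_iff.1 hz n)
    have hpow : (tv v 1 : Matrix.symplecticGroup (Fin m) F) ^ 2 ^ k = (n⁻¹ * tv v 1) ^ 2 ^ k := by
      have e : (tv v 1 : Matrix.symplecticGroup (Fin m) F) = n * (n⁻¹ * tv v 1) := by group
      conv_lhs => rw [e]
      rw [hcomm.mul_pow, hk, one_mul]
    have hc : (tv v 1 : Matrix.symplecticGroup (Fin m) F) ^ 2 ^ k ∈ Z := by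
      rw [hpow]; exact Subgroup.pow_mem _ hz _
    obtain ⟨a, ha⟩ := sp_center_scalar m _ hc
    have hact : ∀ x : Fin m ⊕ Fin m → F, x + (((2 ^ k : ℕ) : F) * sympForm m F x v) • v = a • x := by
      intro x
      rw [← tv_pow_mulVec, ha]
      ext i
      simp [Matrix.mulVec_diagonal]
    have ha1 : a = 1 := by
      have := congrFun (hact v) (Sum.inl ⟨0, by omega⟩)
      rw [sympForm_self] at this
      simpa [hv] using this.symm
    obtain ⟨y, hy⟩ := exists_sympForm_ne_zero hv0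
    have hy' : sympForm m F y v ≠ 0 := by
      rw [sympForm_swap]; exact neg_ne_zero.2 hy
    have h5 := hact y
    rw [ha1, one_smul, add_eq_left] at h5
    rcases smul_eq_zero.1 h5 with h6 | h6
    · rcases mul_eq_zero.1 h6 with h7 | h7
      · push_cast at h7
        exact h2 (pow_eq_zero_iff_of_pos' h7)
      · exact hy' h7
    · exact hv0 h6

/-- E1f -/
theorem sp_not_le_c6 [Fintype F] {m : ℕ} (hm : 2 ≤ m) (hodd : Odd (Fintype.card F))
    (R : Subgroup (GL (Fin m ⊕ Fin m) F)) (hp : IsPGroup 2 R)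
    (hirr : ActsAbsolutelyIrreducibly (matrixSet R)) (hsim : R ≤ similarityGroup (sympForm m F)) :
    ¬ spGL m F ≤ subgroupNormalizer R := by
  intro hle
  have hnorm : ∀ A : Matrix.symplecticGroup (Fin m) F, ∀ x, x ∈ R ↔ psi m A * x * (psi m A)⁻¹ ∈ R :=
    fun A => Subgroup.mem_normalizer_iff.1 (hle (psi_mem m A))
  -- the normal 2-subgroup
  have hNc : R.comap (psi m) ≤ Subgroup.center (Matrix.symplecticGroup (Fin m) F) := by
    apply normal_two_le_center hm hodd
    · constructor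
      intro n hn g
      rw [Subgroup.mem_comap] at hn ⊢
      rw [map_mul, map_mul, map_inv]
      exact (hnorm g _).1 hn
    · intro n hn
      obtain ⟨k, hk⟩ := hp ⟨psi m n, hn⟩
      refine ⟨k, psi_injective m ?_⟩
      rw [map_pow, map_one]
      exact congrArg Subtype.val hk
  -- commutators are scalar
  have hcs : ∀ x ∈ R, ∀ A : Matrix.symplecticGroup (Fin m) F, ∃ a : F, ∀ y : Fin m ⊕ Fin m → F,
      (x : Matrix (Fin m ⊕ Fin m) (Fin m ⊕ Fin m) F) *ᵥ (A.1 *ᵥ y) =
        a • (A.1 *ᵥ ((x : Matrix (Fin m ⊕ Fin m) (Fin m ⊕ Fin m) F) *ᵥ y)) := by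
    intro x hx A
    set g : GL (Fin m ⊕ Fin m) F := x * psi m A * x⁻¹ * (psi m A)⁻¹ with hg
    have hgR : g ∈ R := by
      have e : g = x * (psi m A * x⁻¹ * (psi m A)⁻¹) := by rw [hg]; group
      rw [e]
      exact R.mul_mem hx ((hnorm A _).1 (R.inv_mem hx))
    have hgS : g ∈ spGL m F := by
      refine Subgroup.mul_mem _ ?_ (Subgroup.inv_mem _ (psi_mem m A))
      obtain ⟨c, hc⟩ := hsim hx
      intro u w
      show sympForm m F (((x * psi m A * x⁻¹ : GL (Fin m ⊕ Fin m) F) :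
        Matrix (Fin m ⊕ Fin m) (Fin m ⊕ Fin m) F) *ᵥ u) (((x * psi m A * x⁻¹ :
        GL (Fin m ⊕ Fin m) F) : Matrix (Fin m ⊕ Fin m) (Fin m ⊕ Fin m) F) *ᵥ w) = sympForm m F u w
      rw [Units.val_mul, Units.val_mul, ← Matrix.mulVec_mulVec, ← Matrix.mulVec_mulVec,
        ← Matrix.mulVec_mulVec, ← Matrix.mulVec_mulVec, hc, psi_coe, sp_preserves, ← hc,
        Matrix.mulVec_mulVec, Matrix.mulVec_mulVec, ← Units.val_mul, mul_inv_cancel, Units.val_one,
        Matrix.one_mulVec, Matrix.one_mulVec]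
    obtain ⟨C, hC⟩ := exists_psi_eq m g hgS
    have hCc : C ∈ Subgroup.center (Matrix.symplecticGroup (Fin m) F) := hNc (by
      rw [Subgroup.mem_comap, hC]; exact hgR)
    obtain ⟨a, ha⟩ := sp_center_scalar m C hCc
    refine ⟨a, fun y => ?_⟩
    have e1 : x * psi m A = g * (psi m A * x) := by rw [hg]; group
    have e2 := congrArg (fun z : GL (Fin m ⊕ Fin m) F =>
      (z : Matrix (Fin m ⊕ Fin m) (Fin m ⊕ Fin m) F) *ᵥ y) e1
    simp only [Units.val_mul, ← Matrix.mulVec_mulVec, psi_coe] at e2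
    rw [e2, ← hC, psi_coe, ha]
    ext i
    simp [Matrix.mulVec_diagonal]
  -- every element of `R` commutes with the transvections
  have hcomm : ∀ x ∈ R, ∀ v : Fin m ⊕ Fin m → F, v ≠ 0 → ∀ y : Fin m ⊕ Fin m → F,
      (x : Matrix (Fin m ⊕ Fin m) (Fin m ⊕ Fin m) F) *ᵥ ((tv v 1).1 *ᵥ y) =
        (tv v 1).1 *ᵥ ((x : Matrix (Fin m ⊕ Fin m) (Fin m ⊕ Fin m) F) *ᵥ y) := by
    intro x hx v hv y
    obtain ⟨a, ha⟩ := hcs x hx (tv v 1)
    have ha1 : a = 1 := by
      by_contra hne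
      have h1 := ha v
      set w := (x : Matrix (Fin m ⊕ Fin m) (Fin m ⊕ Fin m) F) *ᵥ v with hw
      have hw0 : w ≠ 0 := by
        intro h0
        apply hv
        have := congrArg (fun z => ((x⁻¹ : GL (Fin m ⊕ Fin m) F) :
          Matrix (Fin m ⊕ Fin m) (Fin m ⊕ Fin m) F) *ᵥ z) h0
        simpa [hw, Matrix.mulVec_mulVec, ← Units.val_mul] using this
      have etv : ∀ z, (tv v 1).1 *ᵥ z = z + (1 * sympForm m F z v) • v := tv_mulVec v 1
      rw [etv, etv, sympForm_self, mul_zero, zero_smul, add_zero, ← hw] at h1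
      have h2 := congrArg (fun z => sympForm m F z v) h1
      simp only [sympForm_smul_left, sympForm_add_left, sympForm_self, mul_zero, add_zero] at h2
      have h3 : (1 - a) * sympForm m F w v = 0 := by linear_combination h2
      rcases mul_eq_zero.1 h3 with h4 | h4
      · exact hne (by linear_combination -h4)
      · rw [h4, mul_zero, zero_smul, add_zero] at h1
        have h5 : (1 - a) • w = 0 := by rw [sub_smul, one_smul, ← h1, sub_self]
        rcases smul_eq_zero.1 h5 with h6 | h6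
        · exact hne (by linear_combination -h6)
        · exact hw0 h6
    rw [ha, ha1, one_smul]
  -- so it is scalar
  have hscal : ∀ x ∈ R, ∃ a : F, (x : Matrix (Fin m ⊕ Fin m) (Fin m ⊕ Fin m) F) =
      Matrix.scalar _ a := by
    intro x hx
    apply matrix_eq_scalar_of_forall_mulVec
    intro v
    by_cases hv : v = 0
    · exact ⟨0, by simp [hv]⟩
    obtain ⟨y, hy⟩ := exists_sympForm_ne_zero hv
    have hy' : sympForm m F y v ≠ 0 := by
      rw [sympForm_swap]; exact neg_ne_zero.2 hy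
    have h1 := hcomm x hx v hv y
    have etv : ∀ z, (tv v 1).1 *ᵥ z = z + (1 * sympForm m F z v) • v := tv_mulVec v 1
    rw [etv, etv, Matrix.mulVec_add, Matrix.mulVec_smul, one_mul, one_mul] at h1
    have h2 := add_left_cancel h1
    refine ⟨sympForm m F ((x : Matrix (Fin m ⊕ Fin m) (Fin m ⊕ Fin m) F) *ᵥ y) v /
      sympForm m F y v, ?_⟩
    rw [div_eq_inv_mul, mul_smul, ← h2, smul_smul, inv_mul_cancel₀ hy', one_smul]
  -- contradiction with absolute irreducibility
  obtain ⟨c, hc⟩ := hirr.2 (Matrix.single (Sum.inl ⟨0, by omega⟩) (Sum.inl ⟨0, by omega⟩) 1) (by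
    rintro _ ⟨x, hx, rfl⟩
    obtain ⟨a, ha⟩ := hscal x hx
    show _ * (x : Matrix (Fin m ⊕ Fin m) (Fin m ⊕ Fin m) F) =
      (x : Matrix (Fin m ⊕ Fin m) (Fin m ⊕ Fin m) F) * _
    rw [ha]
    exact ((Matrix.scalar_commute a (fun r => mul_comm a r) _).eq).symm)
  have e1 := congrFun (congrFun hc (Sum.inl ⟨0, by omega⟩)) (Sum.inl ⟨0, by omega⟩)
  have e2 := congrFun (congrFun hc (Sum.inl ⟨1, by omega⟩)) (Sum.inl ⟨1, by omega⟩)
  simp at e1 e2
  rw [← e1] at e2
  exact one_ne_zero e2.symm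

end Cfsg.Agent.Lib.Helper11.Sp
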