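import Cfsg.Agent.Lib.Helper13.Asch.Defs
import Cfsg.Agent.Lib.Helper35.Asch.Kron

set_option autoImplicit false
set_option linter.unusedSectionVars false
set_option linter.unusedSimpArgs false

/-! # A group transitive on the non-zero vectors lies in no tensor product / subfield subgroup -/

namespace Cfsg.Agent.Lib.Helper11.Sp

open Cfsg Cfsg.Geo Matrix Cfsg.Agent.Lib.Helper13.Asch
open scoped Kronecker MatrixGroups

variable {ι : Type} [Fintype ι] [DecidableEq ι] {F : Type*} [Field F]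

theorem reindex_mulVec_comp {κ : Type} [Fintype κ] [DecidableEq κ]
    (e : ι ≃ κ) (M : Matrix κ κ F) (x : κ → F) :
    Matrix.reindex e.symm e.symm M *ᵥ (x ∘ e) = (M *ᵥ x) ∘ e := by
  ext i
  simp only [Matrix.mulVec, dotProduct, Matrix.reindex_apply, Matrix.submatrix_apply,
    Function.comp_apply, Equiv.symm_symm]
  exact Fintype.sum_equiv e _ _ (fun _ => rfl)

theorem gl_mulVec_injective (P : GL ι F) {u v : ι → F}
    (h : (P : Matrix ι ι F) *ᵥ u = (P : Matrix ι ι F) *ᵥ v) : u = v := by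
  have := congrArg (fun z => ((P⁻¹ : GL ι F) : Matrix ι ι F) *ᵥ z) h
  simpa [Matrix.mulVec_mulVec, ← Units.val_mul] using this

theorem comp_equiv_injective {κ : Type} (e : ι ≃ κ) {x y : κ → F} (h : x ∘ e = y ∘ e) : x = y := by
  ext k
  have := congrFun h (e.symm k)
  simpa using this

theorem not_le_tensor_of_trans (S : Subgroup (GL ι F))
    (htr : ∀ v w : ι → F, v ≠ 0 → w ≠ 0 → ∃ g ∈ S, (g : Matrix ι ι F) *ᵥ v = w)
    {a b : ℕ} (ha : 2 ≤ a) (hb : 2 ≤ b) (e : ι ≃ Fin a × Fin b) (P : GL ι F) :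
    ¬ S ≤ tensorProductSubgroup a b e P := by
  intro hle
  obtain ⟨a, rfl⟩ : ∃ a', a = a' + 2 := ⟨a - 2, by omega⟩
  obtain ⟨b, rfl⟩ : ∃ b', b = b' + 2 := ⟨b - 2, by omega⟩
  set d0 : Fin (a + 2) × Fin (b + 2) → F := Pi.single (0, 0) 1 with hd0
  set d1 : Fin (a + 2) × Fin (b + 2) → F := Pi.single (0, 0) 1 + Pi.single (1, 1) 1 with hd1
  have hne : ((0 : Fin (a + 2)), (0 : Fin (b + 2))) ≠ (1, 1) := by
    intro h; simpa using congrArg Prod.fst h
  have hd00 : d0 ≠ 0 := by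
    intro h
    have := congrFun h (0, 0)
    simp [hd0] at this
  have hd10 : d1 ≠ 0 := by
    intro h
    have := congrFun h (0, 0)
    simp [hd1, Pi.single_apply] at this
  have hnz : ∀ z : Fin (a + 2) × Fin (b + 2) → F, z ≠ 0 → (P : Matrix ι ι F) *ᵥ (z ∘ e) ≠ 0 := by
    intro z hz h
    apply hz
    apply comp_equiv_injective e
    apply gl_mulVec_injective P
    rw [h]
    have : (0 : Fin (a + 2) × Fin (b + 2) → F) ∘ e = 0 := rfl
    rw [this, Matrix.mulVec_zero]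
  obtain ⟨g, hg, hgv⟩ := htr _ _ (hnz d0 hd00) (hnz d1 hd10)
  obtain ⟨x, y, hxy⟩ := (Cfsg.Agent.Lib.Helper35.Asch.mem_tensor_iff e P g).1 (hle hg)
  rw [hxy, Matrix.mulVec_mulVec, mul_assoc, ← Units.val_mul, inv_mul_cancel, Units.val_one, mul_one,
    ← Matrix.mulVec_mulVec, reindex_mulVec_comp] at hgv
  have hz := comp_equiv_injective e (gl_mulVec_injective P hgv)
  have e1 := congrFun hz (0, 0)
  have e2 := congrFun hz (1, 1)
  have e3 := congrFun hz (0, 1)
  simp [hd0, hd1, Matrix.mulVec_single_one, Matrix.kroneckerMap_apply, Pi.single_apply] at e1 e2 e3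
  rcases e3 with e3 | e3
  · rw [e3] at e1; simp at e1
  · rw [e3] at e2; simp at e2

theorem not_le_subfield_of_trans (S : Subgroup (GL ι F))
    (htr : ∀ v w : ι → F, v ≠ 0 → w ≠ 0 → ∃ g ∈ S, (g : Matrix ι ι F) *ᵥ v = w)
    (hι : 2 ≤ Fintype.card ι) (F₀ : Subfield F) (hF₀ : F₀ ≠ ⊤) (P : GL ι F) :
    ¬ S ≤ subfieldSubgroup F₀ P := by
  intro hle
  obtain ⟨t, ht⟩ : ∃ t, t ∉ F₀ := by
    by_contra h
    push Not at h
    exact hF₀ (eq_top_iff.2 fun x _ => h x)
  obtain ⟨i, j, hij⟩ := Fintype.exists_pair_of_one_lt_card (α := ι) (by omega)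
  set d0 : ι → F := Pi.single i 1 with hd0
  set d1 : ι → F := Pi.single i 1 + Pi.single j t with hd1
  have hd00 : d0 ≠ 0 := by
    intro h
    have := congrFun h i
    simp [hd0] at this
  have hd10 : d1 ≠ 0 := by
    intro h
    have := congrFun h i
    simp [hd1, Pi.single_apply, hij] at this
  have hnz : ∀ z : ι → F, z ≠ 0 → (P : Matrix ι ι F) *ᵥ z ≠ 0 := by
    intro z hz h
    apply hz
    apply gl_mulVec_injective P
    rw [h, Matrix.mulVec_zero]
  obtain ⟨g, hg, hgv⟩ := htr _ _ (hnz d0 hd00) (hnz d1 hd10)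
  obtain ⟨y, hy, hyg⟩ := hle hg
  have hyg' : g = P * y * P⁻¹ := hyg.symm
  obtain ⟨g0, ⟨A, rfl⟩, s, hs, hgs⟩ := Subgroup.mem_sup_of_normal_right.1 hy
  obtain ⟨c, hc⟩ := (mem_scalars_iff s).1 hs
  have hPP : ((P⁻¹ : GL ι F) : Matrix ι ι F) * (P : Matrix ι ι F) = 1 := by
    rw [← Units.val_mul, inv_mul_cancel, Units.val_one]
  rw [hyg', Units.val_mul, Units.val_mul, Matrix.mulVec_mulVec, mul_assoc, hPP, mul_one,
    ← Matrix.mulVec_mulVec] at hgv
  have hz := gl_mulVec_injective P hgv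
  rw [← hgs, Units.val_mul, hc, Matrix.mul_smul, mul_one] at hz
  have hent : ∀ k, (c : F) * ((A : Matrix ι ι F₀) k i : F) = d1 k := by
    intro k
    have := congrFun hz k
    rw [hd0, Matrix.mulVec_single_one] at this
    exact this
  have e1 := hent i
  have e2 := hent j
  simp [hd1, Pi.single_apply, hij, hij.symm] at e1 e2
  apply ht
  have hcF : (c : F) = (((A : Matrix ι ι F₀) i i : F₀) : F)⁻¹ := eq_inv_of_mul_eq_one_left e1
  rw [← e2, hcF]
  exact F₀.mul_mem (F₀.inv_mem (SetLike.coe_mem _)) (SetLike.coe_mem _)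

end Cfsg.Agent.Lib.Helper11.Sp
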